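import Cfsg.Agent.H35.T1681.PTab

set_option autoImplicit false
set_option linter.all false
set_option Elab.async false

namespace Cfsg.Agent.H35

theorem t1681_pchk_30 : allR t1681_pf 22880 8 (30 * 2 ^ 8) = true := by decide +kernel
theorem t1681_pchk_31 : allR t1681_pf 22880 8 (31 * 2 ^ 8) = true := by decide +kernel
theorem t1681_pchk_32 : allR t1681_pf 22880 8 (32 * 2 ^ 8) = true := by decide +kernel
theorem t1681_pchk_33 : allR t1681_pf 22880 8 (33 * 2 ^ 8) = true := by decide +kernel
theorem t1681_pchk_34 : allR t1681_pf 22880 8 (34 * 2 ^ 8) = true := by decide +kernel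
theorem t1681_pchk_35 : allR t1681_pf 22880 8 (35 * 2 ^ 8) = true := by decide +kernel
theorem t1681_pchk_36 : allR t1681_pf 22880 8 (36 * 2 ^ 8) = true := by decide +kernel
theorem t1681_pchk_37 : allR t1681_pf 22880 8 (37 * 2 ^ 8) = true := by decide +kernel
theorem t1681_pchk_38 : allR t1681_pf 22880 8 (38 * 2 ^ 8) = true := by decide +kernel
theorem t1681_pchk_39 : allR t1681_pf 22880 8 (39 * 2 ^ 8) = true := by decide +kernel
theorem t1681_pchk_40 : allR t1681_pf 22880 8 (40 * 2 ^ 8) = true := by decide +kernel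
theorem t1681_pchk_41 : allR t1681_pf 22880 8 (41 * 2 ^ 8) = true := by decide +kernel
theorem t1681_pchk_42 : allR t1681_pf 22880 8 (42 * 2 ^ 8) = true := by decide +kernel
theorem t1681_pchk_43 : allR t1681_pf 22880 8 (43 * 2 ^ 8) = true := by decide +kernel
theorem t1681_pchk_44 : allR t1681_pf 22880 8 (44 * 2 ^ 8) = true := by decide +kernel
theorem t1681_pchk_45 : allR t1681_pf 22880 8 (45 * 2 ^ 8) = true := by decide +kernel
theorem t1681_pchk_46 : allR t1681_pf 22880 8 (46 * 2 ^ 8) = true := by decide +kernel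
theorem t1681_pchk_47 : allR t1681_pf 22880 8 (47 * 2 ^ 8) = true := by decide +kernel
theorem t1681_pchk_48 : allR t1681_pf 22880 8 (48 * 2 ^ 8) = true := by decide +kernel
theorem t1681_pchk_49 : allR t1681_pf 22880 8 (49 * 2 ^ 8) = true := by decide +kernel
theorem t1681_pchk_50 : allR t1681_pf 22880 8 (50 * 2 ^ 8) = true := by decide +kernel
theorem t1681_pchk_51 : allR t1681_pf 22880 8 (51 * 2 ^ 8) = true := by decide +kernel
theorem t1681_pchk_52 : allR t1681_pf 22880 8 (52 * 2 ^ 8) = true := by decide +kernel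
theorem t1681_pchk_53 : allR t1681_pf 22880 8 (53 * 2 ^ 8) = true := by decide +kernel
theorem t1681_pchk_54 : allR t1681_pf 22880 8 (54 * 2 ^ 8) = true := by decide +kernel
theorem t1681_pchk_55 : allR t1681_pf 22880 8 (55 * 2 ^ 8) = true := by decide +kernel
theorem t1681_pchk_56 : allR t1681_pf 22880 8 (56 * 2 ^ 8) = true := by decide +kernel
theorem t1681_pchk_57 : allR t1681_pf 22880 8 (57 * 2 ^ 8) = true := by decide +kernel
theorem t1681_pchk_58 : allR t1681_pf 22880 8 (58 * 2 ^ 8) = true := by decide +kernel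
theorem t1681_pchk_59 : allR t1681_pf 22880 8 (59 * 2 ^ 8) = true := by decide +kernel

end Cfsg.Agent.H35
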