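import Cfsg.Agent.H35.T1681.PTab

set_option autoImplicit false
set_option linter.all false
set_option Elab.async false

namespace Cfsg.Agent.H35

theorem t1681_pchk_60 : allR t1681_pf 22880 8 (60 * 2 ^ 8) = true := by decide +kernel
theorem t1681_pchk_61 : allR t1681_pf 22880 8 (61 * 2 ^ 8) = true := by decide +kernel
theorem t1681_pchk_62 : allR t1681_pf 22880 8 (62 * 2 ^ 8) = true := by decide +kernel
theorem t1681_pchk_63 : allR t1681_pf 22880 8 (63 * 2 ^ 8) = true := by decide +kernel
theorem t1681_pchk_64 : allR t1681_pf 22880 8 (64 * 2 ^ 8) = true := by decide +kernel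
theorem t1681_pchk_65 : allR t1681_pf 22880 8 (65 * 2 ^ 8) = true := by decide +kernel
theorem t1681_pchk_66 : allR t1681_pf 22880 8 (66 * 2 ^ 8) = true := by decide +kernel
theorem t1681_pchk_67 : allR t1681_pf 22880 8 (67 * 2 ^ 8) = true := by decide +kernel
theorem t1681_pchk_68 : allR t1681_pf 22880 8 (68 * 2 ^ 8) = true := by decide +kernel
theorem t1681_pchk_69 : allR t1681_pf 22880 8 (69 * 2 ^ 8) = true := by decide +kernel
theorem t1681_pchk_70 : allR t1681_pf 22880 8 (70 * 2 ^ 8) = true := by decide +kernel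
theorem t1681_pchk_71 : allR t1681_pf 22880 8 (71 * 2 ^ 8) = true := by decide +kernel
theorem t1681_pchk_72 : allR t1681_pf 22880 8 (72 * 2 ^ 8) = true := by decide +kernel
theorem t1681_pchk_73 : allR t1681_pf 22880 8 (73 * 2 ^ 8) = true := by decide +kernel
theorem t1681_pchk_74 : allR t1681_pf 22880 8 (74 * 2 ^ 8) = true := by decide +kernel
theorem t1681_pchk_75 : allR t1681_pf 22880 8 (75 * 2 ^ 8) = true := by decide +kernel
theorem t1681_pchk_76 : allR t1681_pf 22880 8 (76 * 2 ^ 8) = true := by decide +kernel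
theorem t1681_pchk_77 : allR t1681_pf 22880 8 (77 * 2 ^ 8) = true := by decide +kernel
theorem t1681_pchk_78 : allR t1681_pf 22880 8 (78 * 2 ^ 8) = true := by decide +kernel
theorem t1681_pchk_79 : allR t1681_pf 22880 8 (79 * 2 ^ 8) = true := by decide +kernel
theorem t1681_pchk_80 : allR t1681_pf 22880 8 (80 * 2 ^ 8) = true := by decide +kernel
theorem t1681_pchk_81 : allR t1681_pf 22880 8 (81 * 2 ^ 8) = true := by decide +kernel
theorem t1681_pchk_82 : allR t1681_pf 22880 8 (82 * 2 ^ 8) = true := by decide +kernel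
theorem t1681_pchk_83 : allR t1681_pf 22880 8 (83 * 2 ^ 8) = true := by decide +kernel
theorem t1681_pchk_84 : allR t1681_pf 22880 8 (84 * 2 ^ 8) = true := by decide +kernel
theorem t1681_pchk_85 : allR t1681_pf 22880 8 (85 * 2 ^ 8) = true := by decide +kernel
theorem t1681_pchk_86 : allR t1681_pf 22880 8 (86 * 2 ^ 8) = true := by decide +kernel
theorem t1681_pchk_87 : allR t1681_pf 22880 8 (87 * 2 ^ 8) = true := by decide +kernel
theorem t1681_pchk_88 : allR t1681_pf 22880 8 (88 * 2 ^ 8) = true := by decide +kernel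
theorem t1681_pchk_89 : allR t1681_pf 22880 8 (89 * 2 ^ 8) = true := by decide +kernel

end Cfsg.Agent.H35
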