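import Cfsg.Agent.H35.T1681.PChk0
import Cfsg.Agent.H35.T1681.PChk1
import Cfsg.Agent.H35.T1681.PChk2

set_option autoImplicit false
set_option linter.all false

namespace Cfsg.Agent.H35

theorem t1681_pall : ∀ p, p < 22880 → t1681_pf p = true := by
  apply allR_blocks t1681_pf 22880 8 90 _ (by decide)
  intro k hk
  interval_cases k
  · exact t1681_pchk_0
  · exact t1681_pchk_1
  · exact t1681_pchk_2
  · exact t1681_pchk_3
  · exact t1681_pchk_4
  · exact t1681_pchk_5
  · exact t1681_pchk_6
  · exact t1681_pchk_7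
  · exact t1681_pchk_8
  · exact t1681_pchk_9
  · exact t1681_pchk_10
  · exact t1681_pchk_11
  · exact t1681_pchk_12
  · exact t1681_pchk_13
  · exact t1681_pchk_14
  · exact t1681_pchk_15
  · exact t1681_pchk_16
  · exact t1681_pchk_17
  · exact t1681_pchk_18
  · exact t1681_pchk_19
  · exact t1681_pchk_20
  · exact t1681_pchk_21
  · exact t1681_pchk_22
  · exact t1681_pchk_23
  · exact t1681_pchk_24
  · exact t1681_pchk_25
  · exact t1681_pchk_26
  · exact t1681_pchk_27
  · exact t1681_pchk_28
  · exact t1681_pchk_29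
  · exact t1681_pchk_30
  · exact t1681_pchk_31
  · exact t1681_pchk_32
  · exact t1681_pchk_33
  · exact t1681_pchk_34
  · exact t1681_pchk_35
  · exact t1681_pchk_36
  · exact t1681_pchk_37
  · exact t1681_pchk_38
  · exact t1681_pchk_39
  · exact t1681_pchk_40
  · exact t1681_pchk_41
  · exact t1681_pchk_42
  · exact t1681_pchk_43
  · exact t1681_pchk_44
  · exact t1681_pchk_45
  · exact t1681_pchk_46
  · exact t1681_pchk_47
  · exact t1681_pchk_48
  · exact t1681_pchk_49
  · exact t1681_pchk_50
  · exact t1681_pchk_51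
  · exact t1681_pchk_52
  · exact t1681_pchk_53
  · exact t1681_pchk_54
  · exact t1681_pchk_55
  · exact t1681_pchk_56
  · exact t1681_pchk_57
  · exact t1681_pchk_58
  · exact t1681_pchk_59
  · exact t1681_pchk_60
  · exact t1681_pchk_61
  · exact t1681_pchk_62
  · exact t1681_pchk_63
  · exact t1681_pchk_64
  · exact t1681_pchk_65
  · exact t1681_pchk_66
  · exact t1681_pchk_67
  · exact t1681_pchk_68
  · exact t1681_pchk_69
  · exact t1681_pchk_70
  · exact t1681_pchk_71
  · exact t1681_pchk_72
  · exact t1681_pchk_73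
  · exact t1681_pchk_74
  · exact t1681_pchk_75
  · exact t1681_pchk_76
  · exact t1681_pchk_77
  · exact t1681_pchk_78
  · exact t1681_pchk_79
  · exact t1681_pchk_80
  · exact t1681_pchk_81
  · exact t1681_pchk_82
  · exact t1681_pchk_83
  · exact t1681_pchk_84
  · exact t1681_pchk_85
  · exact t1681_pchk_86
  · exact t1681_pchk_87
  · exact t1681_pchk_88
  · exact t1681_pchk_89

theorem t1681_psub : t1681_pd.subOK t1681_sw = true := by decide +kernel

end Cfsg.Agent.H35
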