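import Cfsg.Agent.H35.T1681.PTab

set_option autoImplicit false
set_option linter.all false
set_option Elab.async false

namespace Cfsg.Agent.H35

theorem t1681_pchk_0 : allR t1681_pf 22880 8 (0 * 2 ^ 8) = true := by decide +kernel
theorem t1681_pchk_1 : allR t1681_pf 22880 8 (1 * 2 ^ 8) = true := by decide +kernel
theorem t1681_pchk_2 : allR t1681_pf 22880 8 (2 * 2 ^ 8) = true := by decide +kernel
theorem t1681_pchk_3 : allR t1681_pf 22880 8 (3 * 2 ^ 8) = true := by decide +kernel
theorem t1681_pchk_4 : allR t1681_pf 22880 8 (4 * 2 ^ 8) = true := by decide +kernel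
theorem t1681_pchk_5 : allR t1681_pf 22880 8 (5 * 2 ^ 8) = true := by decide +kernel
theorem t1681_pchk_6 : allR t1681_pf 22880 8 (6 * 2 ^ 8) = true := by decide +kernel
theorem t1681_pchk_7 : allR t1681_pf 22880 8 (7 * 2 ^ 8) = true := by decide +kernel
theorem t1681_pchk_8 : allR t1681_pf 22880 8 (8 * 2 ^ 8) = true := by decide +kernel
theorem t1681_pchk_9 : allR t1681_pf 22880 8 (9 * 2 ^ 8) = true := by decide +kernel
theorem t1681_pchk_10 : allR t1681_pf 22880 8 (10 * 2 ^ 8) = true := by decide +kernel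
theorem t1681_pchk_11 : allR t1681_pf 22880 8 (11 * 2 ^ 8) = true := by decide +kernel
theorem t1681_pchk_12 : allR t1681_pf 22880 8 (12 * 2 ^ 8) = true := by decide +kernel
theorem t1681_pchk_13 : allR t1681_pf 22880 8 (13 * 2 ^ 8) = true := by decide +kernel
theorem t1681_pchk_14 : allR t1681_pf 22880 8 (14 * 2 ^ 8) = true := by decide +kernel
theorem t1681_pchk_15 : allR t1681_pf 22880 8 (15 * 2 ^ 8) = true := by decide +kernel
theorem t1681_pchk_16 : allR t1681_pf 22880 8 (16 * 2 ^ 8) = true := by decide +kernel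
theorem t1681_pchk_17 : allR t1681_pf 22880 8 (17 * 2 ^ 8) = true := by decide +kernel
theorem t1681_pchk_18 : allR t1681_pf 22880 8 (18 * 2 ^ 8) = true := by decide +kernel
theorem t1681_pchk_19 : allR t1681_pf 22880 8 (19 * 2 ^ 8) = true := by decide +kernel
theorem t1681_pchk_20 : allR t1681_pf 22880 8 (20 * 2 ^ 8) = true := by decide +kernel
theorem t1681_pchk_21 : allR t1681_pf 22880 8 (21 * 2 ^ 8) = true := by decide +kernel
theorem t1681_pchk_22 : allR t1681_pf 22880 8 (22 * 2 ^ 8) = true := by decide +kernel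
theorem t1681_pchk_23 : allR t1681_pf 22880 8 (23 * 2 ^ 8) = true := by decide +kernel
theorem t1681_pchk_24 : allR t1681_pf 22880 8 (24 * 2 ^ 8) = true := by decide +kernel
theorem t1681_pchk_25 : allR t1681_pf 22880 8 (25 * 2 ^ 8) = true := by decide +kernel
theorem t1681_pchk_26 : allR t1681_pf 22880 8 (26 * 2 ^ 8) = true := by decide +kernel
theorem t1681_pchk_27 : allR t1681_pf 22880 8 (27 * 2 ^ 8) = true := by decide +kernel
theorem t1681_pchk_28 : allR t1681_pf 22880 8 (28 * 2 ^ 8) = true := by decide +kernel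
theorem t1681_pchk_29 : allR t1681_pf 22880 8 (29 * 2 ^ 8) = true := by decide +kernel

end Cfsg.Agent.H35
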