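import Cfsg.Agent.H35.T1681.RTab

set_option autoImplicit false
set_option linter.all false
set_option Elab.async false

namespace Cfsg.Agent.H35

theorem t1681_rchk_100 : allR t1681_rf 27868 8 (100 * 2 ^ 8) = true := by decide +kernel
theorem t1681_rchk_101 : allR t1681_rf 27868 8 (101 * 2 ^ 8) = true := by decide +kernel
theorem t1681_rchk_102 : allR t1681_rf 27868 8 (102 * 2 ^ 8) = true := by decide +kernel
theorem t1681_rchk_103 : allR t1681_rf 27868 8 (103 * 2 ^ 8) = true := by decide +kernel
theorem t1681_rchk_104 : allR t1681_rf 27868 8 (104 * 2 ^ 8) = true := by decide +kernel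
theorem t1681_rchk_105 : allR t1681_rf 27868 8 (105 * 2 ^ 8) = true := by decide +kernel
theorem t1681_rchk_106 : allR t1681_rf 27868 8 (106 * 2 ^ 8) = true := by decide +kernel
theorem t1681_rchk_107 : allR t1681_rf 27868 8 (107 * 2 ^ 8) = true := by decide +kernel
theorem t1681_rchk_108 : allR t1681_rf 27868 8 (108 * 2 ^ 8) = true := by decide +kernel

end Cfsg.Agent.H35
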