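import Cfsg.Agent.H35.T1681.RChk0
import Cfsg.Agent.H35.T1681.RChk1
import Cfsg.Agent.H35.T1681.RChk2
import Cfsg.Agent.H35.T1681.RChk3
import Cfsg.Agent.H35.T1681.RChk4
import Cfsg.Agent.H35.T1681.RChk5

set_option autoImplicit false
set_option linter.all false

namespace Cfsg.Agent.H35

theorem t1681_rall : ∀ p, p < 27868 → t1681_rf p = true := by
  apply allR_blocks t1681_rf 27868 8 109 _ (by decide)
  intro k hk
  interval_cases k
  · exact t1681_rchk_0
  · exact t1681_rchk_1
  · exact t1681_rchk_2
  · exact t1681_rchk_3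
  · exact t1681_rchk_4
  · exact t1681_rchk_5
  · exact t1681_rchk_6
  · exact t1681_rchk_7
  · exact t1681_rchk_8
  · exact t1681_rchk_9
  · exact t1681_rchk_10
  · exact t1681_rchk_11
  · exact t1681_rchk_12
  · exact t1681_rchk_13
  · exact t1681_rchk_14
  · exact t1681_rchk_15
  · exact t1681_rchk_16
  · exact t1681_rchk_17
  · exact t1681_rchk_18
  · exact t1681_rchk_19
  · exact t1681_rchk_20
  · exact t1681_rchk_21
  · exact t1681_rchk_22
  · exact t1681_rchk_23
  · exact t1681_rchk_24
  · exact t1681_rchk_25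
  · exact t1681_rchk_26
  · exact t1681_rchk_27
  · exact t1681_rchk_28
  · exact t1681_rchk_29
  · exact t1681_rchk_30
  · exact t1681_rchk_31
  · exact t1681_rchk_32
  · exact t1681_rchk_33
  · exact t1681_rchk_34
  · exact t1681_rchk_35
  · exact t1681_rchk_36
  · exact t1681_rchk_37
  · exact t1681_rchk_38
  · exact t1681_rchk_39
  · exact t1681_rchk_40
  · exact t1681_rchk_41
  · exact t1681_rchk_42
  · exact t1681_rchk_43
  · exact t1681_rchk_44
  · exact t1681_rchk_45
  · exact t1681_rchk_46
  · exact t1681_rchk_47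
  · exact t1681_rchk_48
  · exact t1681_rchk_49
  · exact t1681_rchk_50
  · exact t1681_rchk_51
  · exact t1681_rchk_52
  · exact t1681_rchk_53
  · exact t1681_rchk_54
  · exact t1681_rchk_55
  · exact t1681_rchk_56
  · exact t1681_rchk_57
  · exact t1681_rchk_58
  · exact t1681_rchk_59
  · exact t1681_rchk_60
  · exact t1681_rchk_61
  · exact t1681_rchk_62
  · exact t1681_rchk_63
  · exact t1681_rchk_64
  · exact t1681_rchk_65
  · exact t1681_rchk_66
  · exact t1681_rchk_67
  · exact t1681_rchk_68
  · exact t1681_rchk_69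
  · exact t1681_rchk_70
  · exact t1681_rchk_71
  · exact t1681_rchk_72
  · exact t1681_rchk_73
  · exact t1681_rchk_74
  · exact t1681_rchk_75
  · exact t1681_rchk_76
  · exact t1681_rchk_77
  · exact t1681_rchk_78
  · exact t1681_rchk_79
  · exact t1681_rchk_80
  · exact t1681_rchk_81
  · exact t1681_rchk_82
  · exact t1681_rchk_83
  · exact t1681_rchk_84
  · exact t1681_rchk_85
  · exact t1681_rchk_86
  · exact t1681_rchk_87
  · exact t1681_rchk_88
  · exact t1681_rchk_89
  · exact t1681_rchk_90
  · exact t1681_rchk_91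
  · exact t1681_rchk_92
  · exact t1681_rchk_93
  · exact t1681_rchk_94
  · exact t1681_rchk_95
  · exact t1681_rchk_96
  · exact t1681_rchk_97
  · exact t1681_rchk_98
  · exact t1681_rchk_99
  · exact t1681_rchk_100
  · exact t1681_rchk_101
  · exact t1681_rchk_102
  · exact t1681_rchk_103
  · exact t1681_rchk_104
  · exact t1681_rchk_105
  · exact t1681_rchk_106
  · exact t1681_rchk_107
  · exact t1681_rchk_108

theorem t1681_circ_ok : circChk (fullW suz_rws suz_prels) t1681_circT 0 t1681_ccert = true := by decide +kernel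
theorem t1681_hc_ok : allR (fun c => hcChk t1681_rsw t1681_hc1T t1681_hc2T c) 6 3 0 = true := by decide +kernel
theorem t1681_h0 : RData.aord (t1681_rd.ent 0 1) = 0 := by decide +kernel

end Cfsg.Agent.H35
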